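import Cfsg.Agent.H41.SzTC.RChk0

set_option autoImplicit false
set_option linter.all false

namespace Cfsg.Agent.H41.SzP

open Cfsg.Agent.H35

theorem tsz_rall : ∀ p, p < 4590 → tsz_rf p = true := by
  apply allR_blocks tsz_rf 4590 10 5 _ (by decide)
  intro k hk
  interval_cases k
  · exact tsz_rchk_0
  · exact tsz_rchk_1
  · exact tsz_rchk_2
  · exact tsz_rchk_3
  · exact tsz_rchk_4

theorem tsz_circ_ok : circChk (fullW sz_rws sz_prels) tsz_circT 0 tsz_ccert = true := by decide +kernel
theorem tsz_hc_ok : allR (fun c => hcChk tsz_rsw tsz_hc1T tsz_hc2T c) 2 1 0 = true := by decide +kernel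
theorem tsz_h0 : RData.aord (tsz_rd.ent 0 1) = 0 := by decide +kernel

end Cfsg.Agent.H41.SzP
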