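import Cfsg.Agent.H41.SzTC.RTab

set_option autoImplicit false
set_option linter.all false
set_option Elab.async false

namespace Cfsg.Agent.H41.SzP

open Cfsg.Agent.H35

theorem tsz_rchk_0 : allR tsz_rf 4590 10 (0 * 2 ^ 10) = true := by decide +kernel
theorem tsz_rchk_1 : allR tsz_rf 4590 10 (1 * 2 ^ 10) = true := by decide +kernel
theorem tsz_rchk_2 : allR tsz_rf 4590 10 (2 * 2 ^ 10) = true := by decide +kernel
theorem tsz_rchk_3 : allR tsz_rf 4590 10 (3 * 2 ^ 10) = true := by decide +kernel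
theorem tsz_rchk_4 : allR tsz_rf 4590 10 (4 * 2 ^ 10) = true := by decide +kernel

end Cfsg.Agent.H41.SzP
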